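import Mathlib
import Cfsg.Agent.Lib.Helper73.HA.Defs

set_option autoImplicit false

/-! Package GLUE of project HA (helper73): an invariant set with both sides of size at least
two gives a `π`-overgroup with an odd element. -/

namespace Cfsg.Agent.Lib.Helper88.HA

open Equiv

universe u

section
variable {Ω : Type u} [Fintype Ω] [DecidableEq Ω]

/-- The set stabilizer of a finset. -/
def stabS (s : Finset Ω) : Subgroup (Perm Ω) where
  carrier := {g | ∀ x, g x ∈ s ↔ x ∈ s}
  one_mem' := by intro x; simp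
  mul_mem' := by
    intro a b ha hb x
    rw [Perm.mul_apply, ha, hb]
  inv_mem' := by
    intro a ha x
    have := ha (a⁻¹ x)
    simp at this
    exact this.symm

theorem mem_stabS {s : Finset Ω} {g : Perm Ω} : g ∈ stabS s ↔ ∀ x, g x ∈ s ↔ x ∈ s := Iff.rfl

/-- `g` on `s`, `h` on the complement. -/
def glue (s : Finset Ω) (g h : stabS s) : Perm Ω where
  toFun x := if x ∈ s then g.1 x else h.1 x
  invFun x := if x ∈ s then g.1.symm x else h.1.symm x
  left_inv := by
    intro x
    by_cases hx : x ∈ s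
    · have h1 : g.1 x ∈ s := (g.2 x).2 hx
      simp [hx, h1]
    · have h1 : h.1 x ∉ s := fun h' => hx ((h.2 x).1 h')
      simp [hx, h1]
  right_inv := by
    intro x
    by_cases hx : x ∈ s
    · have h1 : g.1.symm x ∈ s := ((stabS s).inv_mem g.2 x).2 hx
      simp [hx, h1]
    · have h1 : h.1.symm x ∉ s := fun h' => hx (((stabS s).inv_mem h.2 x).1 h')
      simp [hx, h1]

theorem glue_apply (s : Finset Ω) (g h : stabS s) (x : Ω) :
    glue s g h x = if x ∈ s then g.1 x else h.1 x := rfl

/-- The gluing homomorphism. -/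
def glueHom (s : Finset Ω) : stabS s × stabS s →* Perm Ω where
  toFun p := glue s p.1 p.2
  map_one' := by
    ext x
    simp [glue_apply]
  map_mul' := by
    intro p q
    ext x
    rw [Perm.mul_apply, glue_apply, glue_apply, glue_apply]
    by_cases hx : x ∈ s
    · have h1 : q.1.1 x ∈ s := (q.1.2 x).2 hx
      simp [hx, h1]
    · have h1 : q.2.1 x ∉ s := fun h' => hx ((q.2.2 x).1 h')
      simp [hx, h1]

theorem glueHom_apply (s : Finset Ω) (p : stabS s × stabS s) :
    glueHom s p = glue s p.1 p.2 := rfl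

end

theorem two_dvd_relIndex {G : Type*} [Group G] (K C A : Subgroup G) (hKC : K ≤ C) (hCA : C ≤ A)
    (f : ↥C →* ℤˣ) (hK : ∀ k (hk : k ∈ K), f ⟨k, hKC hk⟩ = 1) (t : ↥C) (ht : f t = -1) :
    2 ∣ K.relIndex A := by
  rw [← Subgroup.relIndex_mul_relIndex K C A hKC hCA]
  apply Dvd.dvd.mul_right
  have h1 : K.subgroupOf C ≤ f.ker := by
    intro x hx
    rw [MonoidHom.mem_ker]
    exact hK x.1 (Subgroup.mem_subgroupOf.mp hx)
  have h2 : f.ker.index = 2 := by
    rw [Subgroup.index_ker]
    have : f.range = ⊤ := by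
      rw [eq_top_iff]
      intro u _
      rcases Int.units_eq_one_or u with h | h
      · rw [h]; exact one_mem _
      · rw [h, ← ht]; exact ⟨t, rfl⟩
    rw [this, Subgroup.card_top, Nat.card_eq_fintype_card, Fintype.card_units_int]
  have h3 := Subgroup.relIndex_mul_index h1
  show 2 ∣ (K.subgroupOf C).index
  rw [← h3, h2]
  exact dvd_mul_left 2 _

theorem lemGlue : Cfsg.Agent.Lib.Helper73.HA.LemGlue.{u} := by
  intro Ω _ _ π K hK h2 s hs hs2 hc2
  obtain ⟨hKA, hKπ, hKidx⟩ := hK
  have hKB : K ≤ stabS s := fun k hk => hs k hk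
  let ι : ↥K →* ↥(stabS s) := Subgroup.inclusion hKB
  let φ : ↥K × ↥K →* Perm Ω := (glueHom s).comp (ι.prodMap ι)
  refine ⟨φ.range, ?_, ?_, ?_⟩
  · intro k hk
    refine ⟨(⟨k, hk⟩, ⟨k, hk⟩), ?_⟩
    ext x
    show glue s _ _ x = k x
    rw [glue_apply]
    simp [ι]
  · intro p hp hdvd
    have h1 : Nat.card φ.range ∣ Nat.card (↥K × ↥K) := Subgroup.card_range_dvd φ
    rw [Nat.card_prod] at h1
    have h3 := hdvd.trans h1
    rcases (Nat.Prime.dvd_mul hp).1 h3 with h | h <;> exact hKπ p hp h
  · intro hMA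
    obtain ⟨a, ha, b, hb, hab⟩ := Finset.one_lt_card.mp hs2
    obtain ⟨c, hc, d, hd, hcd⟩ := Finset.one_lt_card.mp hc2
    rw [Finset.mem_compl] at hc hd
    let f : ↥(alternatingGroup Ω ⊓ stabS s) →* ℤˣ :=
      (Perm.sign.comp ((glueHom s).comp (MonoidHom.inl _ _))).comp
        (Subgroup.inclusion inf_le_right)
    have hsw1 : swap a b ∈ stabS s := by
      intro x
      by_cases hxa : x = a
      · subst hxa; simp [hb, ha]
      · by_cases hxb : x = b
        · subst hxb; simp [hb, ha]
        · rw [swap_apply_of_ne_of_ne hxa hxb]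
    have hsw2 : swap c d ∈ stabS s := by
      intro x
      by_cases hxa : x = c
      · subst hxa; simp [hc, hd]
      · by_cases hxb : x = d
        · subst hxb; simp [hc, hd]
        · rw [swap_apply_of_ne_of_ne hxa hxb]
    have ht : swap a b * swap c d ∈ alternatingGroup Ω ⊓ stabS s := by
      refine ⟨?_, mul_mem hsw1 hsw2⟩
      show swap a b * swap c d ∈ alternatingGroup Ω
      rw [Perm.mem_alternatingGroup, map_mul, Perm.sign_swap hab, Perm.sign_swap hcd]
      rfl
    have hft : f ⟨swap a b * swap c d, ht⟩ = -1 := by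
      have hg : glue s ⟨swap a b * swap c d, ht.2⟩ 1 = swap a b := by
        ext x
        rw [glue_apply]
        by_cases hx : x ∈ s
        · have hxc : x ≠ c := fun h => hc (h ▸ hx)
          have hxd : x ≠ d := fun h => hd (h ▸ hx)
          simp [hx, swap_apply_of_ne_of_ne hxc hxd]
        · have hxa : x ≠ a := fun h => hx (h ▸ ha)
          have hxb : x ≠ b := fun h => hx (h ▸ hb)
          simp [hx, swap_apply_of_ne_of_ne hxa hxb]
      show Perm.sign (glue s ⟨swap a b * swap c d, ht.2⟩ 1) = -1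
      rw [hg, Perm.sign_swap hab]
    have hfK : ∀ k (hk : k ∈ K), f ⟨k, ⟨hKA hk, hKB hk⟩⟩ = 1 := by
      intro k hk
      have h1 : φ (⟨k, hk⟩, 1) ∈ alternatingGroup Ω := hMA ⟨_, rfl⟩
      rw [Perm.mem_alternatingGroup] at h1
      have h2 : φ (⟨k, hk⟩, 1) = glue s ⟨k, hKB hk⟩ 1 := by
        show glue s (ι ⟨k, hk⟩) (ι 1) = _
        rw [map_one]
        rfl
      rw [h2] at h1
      exact h1
    exact hKidx 2 Nat.prime_two h2
      (two_dvd_relIndex K _ _ (le_inf hKA hKB) inf_le_left f hfK _ hft)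

end Cfsg.Agent.Lib.Helper88.HA
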